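/-
Suborbits are carried along by automorphisms.
-/
import Cfsg.Agent.Leech.Pairs

set_option autoImplicit false

namespace CfsgLib.LeechEnum

open Cfsg CfsgLib.Leech MulAction
open scoped Pointwise

theorem orbit_map {G α : Type*} [Group G] [MulAction G α] (g : G) {H H' : Subgroup G}
    (h : ∀ k : G, k ∈ H ↔ g * k * g⁻¹ ∈ H') (y : α) :
    orbit H' (g • y) = (g • ·) '' orbit H y := by
  ext z
  constructor
  · rintro ⟨⟨k, hk⟩, rfl⟩
    refine ⟨(g⁻¹ * k * g) • y, ⟨⟨g⁻¹ * k * g, (h _).2 (by simpa [mul_assoc] using hk)⟩, rfl⟩, ?_⟩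
    show g • (g⁻¹ * k * g) • y = k • g • y
    simp [mul_smul]
  · rintro ⟨_, ⟨⟨k, hk⟩, rfl⟩, rfl⟩
    refine ⟨⟨g * k * g⁻¹, (h k).1 hk⟩, ?_⟩
    show (g * k * g⁻¹) • g • y = g • k • y
    simp [mul_smul]

theorem stab_conj {G α : Type*} [Group G] [MulAction G α] (g k : G) (a : α) :
    g * k * g⁻¹ ∈ stabilizer G (g • a) ↔ k ∈ stabilizer G a := by
  simp [mem_stabilizer_iff, mul_smul]

end CfsgLib.LeechEnum
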