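/-
Lower bounds for orbit sizes on lattice vectors from computed spanning trees.
-/
import Cfsg.Agent.Leech.Maximal

set_option autoImplicit false

namespace CfsgLib.LeechEnum

open Cfsg CfsgLib.Golay CfsgLib.Leech MulAction
open scoped Pointwise

/-- Evaluate a number before use. -/
def force {α : Type} (b : ℕ) (f : ℕ → α) : α :=
  match b with
  | 0 => f 0
  | n + 1 => f (n + 1)

theorem force_eq {α : Type} (b : ℕ) (f : ℕ → α) : force b f = f b := by
  cases b <;> rfl

/-- One digit of a packed vector. -/
def nib (k j : ℕ) : ℕ := (k >>> (4 * j)) % 16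

/-- The vector of a packed number. -/
def decK (k : ℕ) : List ℤ := (List.range 24).map fun j => (nib k j : ℤ) - 8

/-- Packing. -/
def encK : List ℤ → ℕ
  | [] => 0
  | a :: r => (a + 8).toNat + 16 * encK r

/-- A permutation on packed vectors. -/
def permK : List ℕ → ℕ → ℕ
  | [], _ => 0
  | j :: r, k => nib k j + 16 * permK r k

theorem nib_lt (k j : ℕ) : nib k j < 16 := Nat.mod_lt _ (by norm_num)

theorem nib_permK : ∀ (t : List ℕ) (k i : ℕ), i < t.length → nib (permK t k) i = nib k (t.getD i 0)
  | [], _, _, h => by simp at h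
  | j :: r, k, 0, _ => by
    have := nib_lt k j
    simp only [nib, permK, List.getD_cons_zero, Nat.mul_zero, Nat.shiftRight_zero] at *
    omega
  | j :: r, k, i + 1, h => by
    have := nib_lt k j
    have ih := nib_permK r k i (by simpa using h)
    have e : (permK (j :: r) k) >>> (4 * (i + 1)) = (permK r k) >>> (4 * i) := by
      rw [show 4 * (i + 1) = 4 + 4 * i by ring, Nat.shiftRight_add]
      congr 1
      rw [Nat.shiftRight_eq_div_pow]
      simp only [permK]
      omega
    rw [List.getD_cons_succ, ← ih]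
    simp only [nib, e]

theorem decK_getD (k : ℕ) {j : ℕ} (hj : j < 24) : (decK k).getD j 0 = (nib k j : ℤ) - 8 := by
  rw [List.getD_eq_getElem _ _ (by simp [decK, hj])]
  simp [decK]

theorem vec_permK {t : List ℕ} (ht : validTab t = true) (k : ℕ) :
    vecOf (decK (permK t k)) = vecOf (stepList (t, 0, false) (decK k)) := by
  have hlen : t.length = 24 := by
    simp only [validTab, Bool.and_eq_true, Nat.beq_eq] at ht; exact ht.1
  funext p
  have hp := (idx p).isLt
  have hj : t.getD (idx p).val 0 < 24 := idx_permOf ht p ▸ (idx (permOf t p)).isLt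
  simp only [vecOf]
  rw [decK_getD _ hp, nib_permK t k _ (by rw [hlen]; exact hp)]
  simp only [stepList, cond_false, Nat.zero_testBit]
  rw [List.getD_eq_getElem (List.map _ _) _ (by simpa using hp), List.getElem_map, List.getElem_range, decK_getD _ hj]

/-- One edge: the new key, and whether it is valid. -/
def edge (P : List (List ℕ)) (W : List (List (List ℕ × ℕ × Bool))) (g k : ℕ) : ℕ × Bool :=
  bif Nat.blt g P.length then (permK (P.getD g []) k, true)
  else
    let r := runWord (W.getD (g - P.length) []) (decK k)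
    (encK r, Nat.blt (g - P.length) W.length && decK (encK r) == r)

/-- Walk a packed tree. -/
def walk (P : List (List ℕ)) (W : List (List (List ℕ × ℕ × Bool))) : ℕ → ℕ → List ℕ → List ℕ → List ℕ
  | 0, _, _, acc => acc
  | _ + 1, _, [], acc => acc
  | fuel + 1, ops, a :: st, acc =>
    force (ops % 8) fun d => force (ops / 8) fun rest =>
      bif Nat.beq d 7 then walk P W fuel rest st acc
      else
        bif (edge P W d a).2 then
          force (edge P W d a).1 fun b => walk P W fuel rest (b :: a :: st) (b :: acc)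
        else []

theorem mem_walk {P : List (List ℕ)} {W : List (List (List ℕ × ℕ × Bool))} {Q : ℕ → Prop}
    (hQ : ∀ g k, Q k → (edge P W g k).2 = true → Q (edge P W g k).1) :
    ∀ (fuel ops : ℕ) (st acc : List ℕ), (∀ k ∈ st, Q k) → (∀ k ∈ acc, Q k) →
      ∀ k ∈ walk P W fuel ops st acc, Q k
  | 0, _, _, _, _, ha => by simpa [walk] using ha
  | _ + 1, _, [], _, _, ha => by simpa [walk] using ha
  | fuel + 1, ops, a :: st, acc, hs, ha => by
    simp only [walk, force_eq]
    cases hd : Nat.beq (ops % 8) 7
    · cases he : (edge P W (ops % 8) a).2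
      · simp
      · have hb := hQ _ _ (hs a List.mem_cons_self) he
        simp only [cond_false, cond_true]
        refine mem_walk hQ fuel _ _ _ (fun k hk => ?_) fun k hk => ?_
        · rcases List.mem_cons.1 hk with rfl | hk
          · exact hb
          · exact hs k hk
        · rcases List.mem_cons.1 hk with rfl | hk
          · exact hb
          · exact ha k hk
    · simp only [cond_true]
      exact mem_walk hQ fuel _ _ _ (fun k hk => hs k (List.mem_cons_of_mem _ hk)) ha

/-- Merge two sorted lists. -/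
def mergeK : ℕ → List ℕ → List ℕ → List ℕ
  | 0, _, _ => []
  | _ + 1, [], b => b
  | _ + 1, a :: as, [] => a :: as
  | fuel + 1, a :: as, b :: bs =>
    bif Nat.blt a b then a :: mergeK fuel as (b :: bs) else b :: mergeK fuel (a :: as) bs

theorem mem_mergeK : ∀ (fuel : ℕ) (a b : List ℕ) (k : ℕ), k ∈ mergeK fuel a b → k ∈ a ∨ k ∈ b
  | 0, _, _, _ => by simp [mergeK]
  | _ + 1, [], _, _ => by simp [mergeK]
  | _ + 1, _ :: _, [], _ => by simp [mergeK]
  | fuel + 1, a :: as, b :: bs, k => by
    simp only [mergeK]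
    cases Nat.blt a b <;> simp only [cond_true, cond_false, List.mem_cons] <;> rintro (rfl | h)
    · simp
    · rcases mem_mergeK fuel _ _ _ h with h | h <;> simp_all
    · simp
    · rcases mem_mergeK fuel _ _ _ h with h | h <;> simp_all

/-- Merge neighbours. -/
def mergePairs : List (List ℕ) → List (List ℕ)
  | a :: b :: r => mergeK (a.length + b.length + 1) a b :: mergePairs r
  | r => r

theorem mem_mergePairs : ∀ (L : List (List ℕ)), ∀ l ∈ mergePairs L, ∀ k ∈ l, ∃ m ∈ L, k ∈ m
  | [], l, hl, _, _ => by simp [mergePairs] at hl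
  | [a], l, hl, k, hk => ⟨l, by simpa [mergePairs] using hl, hk⟩
  | a :: b :: r, l, hl, k, hk => by
    simp only [mergePairs, List.mem_cons] at hl
    rcases hl with rfl | hl
    · rcases mem_mergeK _ _ _ _ hk with h | h
      · exact ⟨a, by simp, h⟩
      · exact ⟨b, by simp, h⟩
    · obtain ⟨m, hm, h⟩ := mem_mergePairs r l hl k hk
      exact ⟨m, by simp [hm], h⟩

/-- Bottom-up merging. -/
def mergeAll : ℕ → List (List ℕ) → List ℕ
  | 0, L => L.headD []
  | n + 1, L => mergeAll n (mergePairs L)

theorem mem_mergeAll : ∀ (n : ℕ) (L : List (List ℕ)), ∀ k ∈ mergeAll n L, ∃ m ∈ L, k ∈ m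
  | 0, [], k, h => by simp [mergeAll] at h
  | 0, a :: L, k, h => ⟨a, by simp, by simpa [mergeAll] using h⟩
  | n + 1, L, k, h => by
    obtain ⟨m, hm, h⟩ := mem_mergeAll n _ k h
    exact mem_mergePairs L m hm k h

attribute [local irreducible] decK encK nib permK

/-- Strictly increasing, with valid keys. -/
def goodKeys : List ℕ → Bool
  | [] => true
  | [a] => Nat.beq (encK (decK a)) a
  | a :: b :: r => Nat.beq (encK (decK a)) a && Nat.blt a b && goodKeys (b :: r)

theorem goodKeys_spec : ∀ l : List ℕ, goodKeys l = true →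
    l.Pairwise (· < ·) ∧ ∀ k ∈ l, encK (decK k) = k
  | [], _ => by simp
  | [a], h => by simp only [goodKeys, Nat.beq_eq] at h; simp [h]
  | a :: b :: r, h => by
    simp only [goodKeys, Bool.and_eq_true, Nat.beq_eq, Nat.blt_eq] at h
    obtain ⟨hp, hk⟩ := goodKeys_spec (b :: r) h.2
    refine ⟨List.pairwise_cons.2 ⟨fun c hc => ?_, hp⟩, fun k hkm => ?_⟩
    · rcases List.mem_cons.1 hc with rfl | hc
      · exact h.1.2
      · exact h.1.2.trans ((List.pairwise_cons.1 hp).1 c hc)
    · rcases List.mem_cons.1 hkm with rfl | hkm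
      · exact h.1.1
      · exact hk k hkm

/-- The check for one orbit. -/
def orbitCheck (P : List (List ℕ)) (W : List (List (List ℕ × ℕ × Bool))) (root : List ℤ) (ops n : ℕ) : Bool :=
  let s := mergeAll 14 ((walk P W (2 * (n - 1)) ops [encK root] [encK root]).map fun k => [k])
  decK (encK root) == root && Nat.beq s.length n && goodKeys s

/-- The generators act as elements of the subgroup. -/
structure GensIn (K : Subgroup Co0) (P : List (List ℕ)) (W : List (List (List ℕ × ℕ × Bool))) : Prop where
  perm : ∀ t ∈ P, validTab t = true ∧ ∃ E ∈ K, ∀ (l : List ℤ) (hl : vecOf l ∈ leechLattice),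
    (E • (⟨vecOf l, hl⟩ : leechLattice)).1 = vecOf (stepList (t, 0, false) l)
  word : ∀ w ∈ W, ∃ E ∈ K, ∀ (l : List ℤ) (hl : vecOf l ∈ leechLattice),
    (E • (⟨vecOf l, hl⟩ : leechLattice)).1 = vecOf (runWord w l)

/-- Words fixing some vectors give elements of their common stabiliser. -/
theorem gensIn_of_fix (F : List (List ℤ)) (K : Subgroup Co0) (P : List (List ℕ))
    (W : List (List (List ℕ × ℕ × Bool)))
    (h : P.all (fun t => wordOk [(t, 0, false)] && F.all (fun l => inLeech (vecOf l) && runWord [(t, 0, false)] l == l)) &&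
      W.all (fun w => wordOk w && F.all (fun l => inLeech (vecOf l) && runWord w l == l)) = true)
    (hK : ∀ E : Co0, (∀ l ∈ F, ∀ hl : vecOf l ∈ leechLattice, E • (⟨vecOf l, hl⟩ : leechLattice) = ⟨vecOf l, hl⟩) →
      E ∈ K) : GensIn K P W := by
  simp only [Bool.and_eq_true, List.all_eq_true, beq_iff_eq, decide_eq_true_eq] at h
  have key : ∀ w, wordOk w = true → (∀ l ∈ F, runWord w l = l) → ∃ E ∈ K, ∀ (l : List ℤ)
      (hl : vecOf l ∈ leechLattice), (E • (⟨vecOf l, hl⟩ : leechLattice)).1 = vecOf (runWord w l) := by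
    intro w hw hF
    obtain ⟨E, hE⟩ := word_elt hw
    exact ⟨E, hK E fun l hl hm => Subtype.ext ((hE l hm).trans (by rw [hF l hl])), hE⟩
  refine ⟨fun t ht => ?_, fun w hw => key w (h.2 w hw).1 fun l hl => ((h.2 w hw).2 l hl).2⟩
  obtain ⟨h1, h2⟩ := h.1 t ht
  refine ⟨?_, key _ h1 fun l hl => (h2 l hl).2⟩
  simp only [wordOk, List.all_cons, List.all_nil, Bool.and_true, Bool.and_eq_true] at h1
  exact h1.1.1.1

theorem le_orbit {K : Subgroup Co0} {P : List (List ℕ)} {W : List (List (List ℕ × ℕ × Bool))}
    (hG : GensIn K P W) {root : List ℤ} {ops n : ℕ} (h : orbitCheck P W root ops n = true)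
    {v : leechLattice} (hv : v.1 = vecOf root) (hfin : (orbit K v).Finite) : n ≤ (orbit K v).ncard := by
  simp only [orbitCheck, Bool.and_eq_true, beq_iff_eq, Nat.beq_eq] at h
  obtain ⟨⟨hroot, hlen⟩, hgood⟩ := h
  set s := mergeAll 14 ((walk P W (2 * (n - 1)) ops [encK root] [encK root]).map fun k => [k]) with hs
  obtain ⟨hpw, henc⟩ := goodKeys_spec s hgood
  let Q : ℕ → Prop := fun k => ∃ y ∈ orbit K v, y.1 = vecOf (decK k)
  have hroot' : Q (encK root) := ⟨v, mem_orbit_self v, by rw [hroot, hv]⟩
  have hstep : ∀ g k, Q k → (edge P W g k).2 = true → Q (edge P W g k).1 := by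
    rintro g k ⟨y, hy, hyv⟩ he
    have hmem : vecOf (decK k) ∈ leechLattice := hyv ▸ y.2
    have ye : y = ⟨_, hmem⟩ := Subtype.ext hyv
    unfold edge at he ⊢
    cases hb : Nat.blt g P.length
    · simp only [hb, cond_false, Bool.and_eq_true, beq_iff_eq, Nat.blt_eq] at he ⊢
      obtain ⟨E, hE, hact⟩ := hG.word (W.getD (g - P.length) [])
        (by rw [List.getD_eq_getElem _ _ he.1]; exact List.getElem_mem _)
      refine ⟨(⟨E, hE⟩ : K) • y, mem_orbit_of_mem_orbit _ hy, ?_⟩
      rw [he.2, ye]; exact hact _ hmem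
    · simp only [cond_true]
      rw [Nat.blt_eq] at hb
      obtain ⟨hv', E, hE, hact⟩ := hG.perm (P.getD g [])
        (by rw [List.getD_eq_getElem _ _ hb]; exact List.getElem_mem _)
      refine ⟨(⟨E, hE⟩ : K) • y, mem_orbit_of_mem_orbit _ hy, ?_⟩
      rw [vec_permK hv', ye]; exact hact _ hmem
  have hall : ∀ k ∈ s, Q k := fun k hk => by
    obtain ⟨m, hm, hkm⟩ := mem_mergeAll _ _ k hk
    obtain ⟨a, ha, rfl⟩ := List.mem_map.1 hm
    rw [List.mem_singleton] at hkm
    exact mem_walk hstep _ _ _ _ (by simpa using hroot') (by simpa using hroot') k (hkm ▸ ha)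
  choose y hy hyv using hall
  rw [← hlen, ← List.toFinset_card_of_nodup hpw.nodup, ← Set.ncard_coe_finset]
  refine Set.ncard_le_ncard_of_injOn (fun k => if hk : k ∈ s then y k hk else v) (fun k hk => ?_) ?_ hfin
  · simp only [Finset.mem_coe, List.mem_toFinset] at hk
    simp only [hk, dif_pos]; exact hy k hk
  · intro a ha b hb e
    simp only [Finset.mem_coe, List.mem_toFinset] at ha hb
    simp only [ha, hb, dif_pos] at e
    have e' : vecOf (decK a) = vecOf (decK b) := by rw [← hyv a ha, ← hyv b hb, e]
    rw [← henc a ha, ← henc b hb]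
    congr 1
    refine List.ext_getElem (by simp [decK]) fun i hi _ => ?_
    have hi24 : i < 24 := by simpa [decK] using hi
    have := congrFun e' (ptN i)
    simp only [vecOf, idx_ptN hi24, decK_getD _ hi24] at this
    simp only [decK, List.getElem_map, List.getElem_range]
    exact this

end CfsgLib.LeechEnum
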