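/-
The suborbits of the third Conway group on 11178 vectors.
-/
import Cfsg.Agent.LeechEnum.Enum
import Cfsg.Agent.LeechEnum.Co3Data
import Cfsg.Agent.LeechEnum.Conj
import Cfsg.Agent.Leech.Moments
import Cfsg.Agent.Leech.Triples

set_option autoImplicit false
set_option maxRecDepth 10000

namespace CfsgLib.LeechEnum.Co3Orbits

open Cfsg CfsgLib.Leech CfsgLib.LeechEnum.Co3Data MulAction
open scoped Pointwise

theorem mem_ok : inLeech (vecOf uL) = true ∧ inLeech (vecOf xL) = true ∧
    inLeech (vecOf rootA) = true ∧ inLeech (vecOf rootB) = true ∧ inLeech (vecOf rootC) = true ∧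
    inLeech (vecOf rootD) = true := by decide +kernel

/-- The vector of norm six. -/
def U : leechLattice := ⟨vecOf uL, inLeech_spec mem_ok.1⟩
/-- The base point. -/
def X : leechLattice := ⟨vecOf xL, inLeech_spec mem_ok.2.1⟩
/-- A point. -/
def yA : leechLattice := ⟨vecOf rootA, inLeech_spec mem_ok.2.2.1⟩
/-- A point. -/
def yB : leechLattice := ⟨vecOf rootB, inLeech_spec mem_ok.2.2.2.1⟩
/-- A point. -/
def yC : leechLattice := ⟨vecOf rootC, inLeech_spec mem_ok.2.2.2.2.1⟩
/-- A point. -/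
def yD : leechLattice := ⟨vecOf rootD, inLeech_spec mem_ok.2.2.2.2.2⟩

theorem val_ok : sqNorm U.1 = 48 ∧ sqNorm X.1 = 32 ∧ dotInt U.1 X.1 = -16 ∧
    sqNorm yA.1 = 32 ∧ dotInt U.1 yA.1 = -16 ∧ dotInt X.1 yA.1 = -8 ∧
    sqNorm yB.1 = 32 ∧ dotInt U.1 yB.1 = -16 ∧ dotInt X.1 yB.1 = 16 ∧
    sqNorm yC.1 = 32 ∧ dotInt U.1 yC.1 = -16 ∧ dotInt X.1 yC.1 = 0 ∧
    sqNorm yD.1 = 32 ∧ dotInt U.1 yD.1 = -16 ∧ dotInt X.1 yD.1 = 8 := by
  simp only [U, X, yA, yB, yC, yD]
  decide +kernel

/-- The stabiliser of the vector and the point. -/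
abbrev K : Subgroup Co0 := stabilizer Co0 U ⊓ stabilizer Co0 X

theorem gens : GensIn K perms words :=
  gensIn_of_fix [uL, xL] K perms words (by decide +kernel) fun E hE =>
    ⟨hE uL (by simp) (inLeech_spec mem_ok.1), hE xL (by simp) (inLeech_spec mem_ok.2.1)⟩

theorem checkA : orbitCheck perms words rootA treeA 352 = true := by decide +kernel
theorem checkB : orbitCheck perms words rootB treeB 1100 = true := by decide +kernel
theorem checkC : orbitCheck perms words rootC treeC 4125 = true := by decide +kernel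
theorem checkD : orbitCheck perms words rootD treeD 5600 = true := by decide +kernel

/-- The 11178 vectors. -/
def T : Set leechLattice := {y | sqNorm y.1 = 32 ∧ dotInt U.1 y.1 = -16}

theorem ncard_T : T.ncard = 11178 := by
  rw [← Set.ncard_image_of_injective _ Subtype.val_injective]
  refine (congrArg Set.ncard (Set.ext fun x => ?_)).trans (census48 U.2 val_ok.1).2
  constructor
  · rintro ⟨y, hy, rfl⟩
    exact ⟨y.2, hy⟩
  · intro h
    exact ⟨⟨x, h.1⟩, h.2, rfl⟩

theorem finite_T : T.Finite := Set.finite_of_ncard_ne_zero (by rw [ncard_T]; omega)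

theorem orbit_subset {y : leechLattice} (hy : y ∈ T) :
    orbit K y ⊆ {z | z ∈ T ∧ dotInt X.1 z.1 = dotInt X.1 y.1} := by
  rintro _ ⟨⟨g, hgU, hgX⟩, rfl⟩
  refine ⟨⟨(Leech.norm_smul g y).trans hy.1, ?_⟩, ?_⟩
  · show dotInt U.1 (g • y).1 = -16
    rw [← show g • U = U from hgU, dot_smul]; exact hy.2
  · show dotInt X.1 (g • y).1 = _
    rw [← show g • X = X from hgX, dot_smul, show g • X = X from hgX]

theorem orbits : (orbit K yA).ncard = 352 ∧ (orbit K yB).ncard = 1100 ∧ (orbit K yC).ncard = 4125 ∧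
    (orbit K yD).ncard = 5600 ∧ T = {X} ∪ orbit K yA ∪ orbit K yB ∪ orbit K yC ∪ orbit K yD := by
  obtain ⟨-, hX, hUX, nA, uA, xA, nB, uB, xB, nC, uC, xC, nD, uD, xD⟩ := val_ok
  have sA := orbit_subset (y := yA) ⟨nA, uA⟩
  have sB := orbit_subset (y := yB) ⟨nB, uB⟩
  have sC := orbit_subset (y := yC) ⟨nC, uC⟩
  have sD := orbit_subset (y := yD) ⟨nD, uD⟩
  rw [xA] at sA
  rw [xB] at sB
  rw [xC] at sC
  rw [xD] at sD
  have fA := finite_T.subset fun z hz => (sA hz).1
  have fB := finite_T.subset fun z hz => (sB hz).1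
  have fC := finite_T.subset fun z hz => (sC hz).1
  have fD := finite_T.subset fun z hz => (sD hz).1
  have lA := le_orbit gens checkA (v := yA) rfl fA
  have lB := le_orbit gens checkB (v := yB) rfl fB
  have lC := le_orbit gens checkC (v := yC) rfl fC
  have lD := le_orbit gens checkD (v := yD) rfl fD
  have dXX : dotInt X.1 X.1 = 32 := (dot_self _).trans hX
  have e1 : ({X} ∪ orbit K yA : Set leechLattice).ncard = 1 + (orbit K yA).ncard := by
    rw [Set.ncard_union_eq (Set.disjoint_singleton_left.2 fun hz => by have := (sA hz).2; omega)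
      (Set.finite_singleton _) fA, Set.ncard_singleton]
  have e2 : ({X} ∪ orbit K yA ∪ orbit K yB).ncard = 1 + (orbit K yA).ncard + (orbit K yB).ncard := by
    rw [Set.ncard_union_eq ?_ ((Set.finite_singleton _).union fA) fB, e1]
    refine Set.disjoint_left.2 fun z hz hz' => ?_
    have := (sB hz').2
    rcases hz with rfl | hz
    · omega
    · have := (sA hz).2; omega
  have e3 : ({X} ∪ orbit K yA ∪ orbit K yB ∪ orbit K yC).ncard =
      1 + (orbit K yA).ncard + (orbit K yB).ncard + (orbit K yC).ncard := by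
    rw [Set.ncard_union_eq ?_ (((Set.finite_singleton _).union fA).union fB) fC, e2]
    refine Set.disjoint_left.2 fun z hz hz' => ?_
    have := (sC hz').2
    rcases hz with (rfl | hz) | hz
    · omega
    · have := (sA hz).2; omega
    · have := (sB hz).2; omega
  have e4 : ({X} ∪ orbit K yA ∪ orbit K yB ∪ orbit K yC ∪ orbit K yD).ncard =
      1 + (orbit K yA).ncard + (orbit K yB).ncard + (orbit K yC).ncard + (orbit K yD).ncard := by
    rw [Set.ncard_union_eq ?_ ((((Set.finite_singleton _).union fA).union fB).union fC) fD, e3]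
    refine Set.disjoint_left.2 fun z hz hz' => ?_
    have := (sD hz').2
    rcases hz with ((rfl | hz) | hz) | hz
    · omega
    · have := (sA hz).2; omega
    · have := (sB hz).2; omega
    · have := (sC hz).2; omega
  have hsub : ({X} ∪ orbit K yA ∪ orbit K yB ∪ orbit K yC ∪ orbit K yD : Set leechLattice) ⊆ T := by
    rintro z ((((rfl | hz) | hz) | hz) | hz)
    · exact ⟨hX, hUX⟩
    · exact (sA hz).1
    · exact (sB hz).1
    · exact (sC hz).1
    · exact (sD hz).1
  have hle := Set.ncard_le_ncard hsub finite_T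
  rw [e4, ncard_T] at hle
  refine ⟨by omega, by omega, by omega, by omega, ?_⟩
  exact (Set.eq_of_subset_of_ncard_le hsub (by rw [e4, ncard_T]; omega) finite_T).symm

/-- The suborbits at any point. -/
theorem suborbits {u x : leechLattice} (hu : sqNorm u.1 = 48) (hx : sqNorm x.1 = 32)
    (hd : dotInt u.1 x.1 = -16) :
    ∃ y₁ y₂ y₃ y₄ : leechLattice,
      (orbit ↥(stabilizer Co0 u ⊓ stabilizer Co0 x) y₁).ncard = 352 ∧
      (orbit ↥(stabilizer Co0 u ⊓ stabilizer Co0 x) y₂).ncard = 1100 ∧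
      (orbit ↥(stabilizer Co0 u ⊓ stabilizer Co0 x) y₃).ncard = 4125 ∧
      (orbit ↥(stabilizer Co0 u ⊓ stabilizer Co0 x) y₄).ncard = 5600 ∧
      {z : leechLattice | sqNorm z.1 = 32 ∧ dotInt u.1 z.1 = -16} =
        {x} ∪ orbit ↥(stabilizer Co0 u ⊓ stabilizer Co0 x) y₁ ∪ orbit ↥(stabilizer Co0 u ⊓ stabilizer Co0 x) y₂ ∪
          orbit ↥(stabilizer Co0 u ⊓ stabilizer Co0 x) y₃ ∪ orbit ↥(stabilizer Co0 u ⊓ stabilizer Co0 x) y₄ := by
  obtain ⟨nU, nX, dUX, -⟩ := val_ok
  have hneg : ∀ a b : leechLattice, dotInt (-a).1 b.1 = -dotInt b.1 a.1 := fun a b => by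
    simp [dotInt, mul_comm]
  obtain ⟨g, g1, g2⟩ := transitive_dot48 (x := -X) (v := U) (x' := -x) (v' := u)
    ((sqNorm_neg _).trans nX) nU (by rw [hneg, dUX]; rfl) ((sqNorm_neg _).trans hx) hu (by rw [hneg, hd]; rfl)
  rw [smul_neg'] at g1
  have g1' : g • X = x := neg_injective g1
  have hH : ∀ k : Co0, k ∈ K ↔ g * k * g⁻¹ ∈ stabilizer Co0 u ⊓ stabilizer Co0 x := fun k => by
    rw [← g2, ← g1', Subgroup.mem_inf, Subgroup.mem_inf, stab_conj, stab_conj]
  obtain ⟨a, b, c, d, hT⟩ := orbits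
  refine ⟨g • yA, g • yB, g • yC, g • yD, ?_, ?_, ?_, ?_, ?_⟩
  all_goals simp only [orbit_map g hH]
  · rwa [Set.ncard_image_of_injective _ (MulAction.injective g)]
  · rwa [Set.ncard_image_of_injective _ (MulAction.injective g)]
  · rwa [Set.ncard_image_of_injective _ (MulAction.injective g)]
  · rwa [Set.ncard_image_of_injective _ (MulAction.injective g)]
  · rw [← g1', ← Set.image_singleton (f := (g • ·)), ← Set.image_union, ← Set.image_union, ← Set.image_union,
      ← Set.image_union, ← hT]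
    ext z
    constructor
    · rintro ⟨hz1, hz2⟩
      refine ⟨g⁻¹ • z, ⟨(Leech.norm_smul _ z).trans hz1, ?_⟩, smul_inv_smul g z⟩
      rw [← dot_smul g, smul_inv_smul, g2]; exact hz2
    · rintro ⟨y, ⟨hy1, hy2⟩, rfl⟩
      refine ⟨(Leech.norm_smul g y).trans hy1, ?_⟩
      rw [← g2, dot_smul]; exact hy2

end CfsgLib.LeechEnum.Co3Orbits
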