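/-
The suborbits of the McLaughlin group on 2025 vectors.
-/
import Cfsg.Agent.LeechEnum.Enum
import Cfsg.Agent.LeechEnum.McLData
import Cfsg.Agent.LeechEnum.Conj
import Cfsg.Agent.Leech.HS
import Cfsg.Agent.Leech.StabOrder
import Cfsg.Agent.Leech.Dot8

set_option autoImplicit false
set_option maxRecDepth 10000

namespace CfsgLib.LeechEnum.McLOrbits

open Cfsg CfsgLib.Golay CfsgLib.Leech CfsgLib.LeechEnum.McLData MulAction
open scoped Pointwise

theorem mem_ok : inLeech (vecOf rootA) = true ∧ inLeech (vecOf rootB) = true ∧ inLeech (vecOf rootC) = true ∧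
    repAnti = aL ∧ HS.bList = bL ∧ repPair = xL := by decide +kernel

theorem val_A : HS.A0.1 = vecOf aL := by rw [← mem_ok.2.2.2.1]; rfl
theorem val_B : HS.B0.1 = vecOf bL := by rw [← mem_ok.2.2.2.2.1]; rfl
theorem val_X : HS.X0.1 = vecOf xL := by rw [← mem_ok.2.2.2.2.2]; rfl

/-- A point. -/
def yA : leechLattice := ⟨vecOf rootA, inLeech_spec mem_ok.1⟩
/-- A point. -/
def yB : leechLattice := ⟨vecOf rootB, inLeech_spec mem_ok.2.1⟩
/-- A point. -/
def yC : leechLattice := ⟨vecOf rootC, inLeech_spec mem_ok.2.2.1⟩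

theorem val_ok : sqNorm yA.1 = 32 ∧ dotInt HS.A0.1 yA.1 = 0 ∧ dotInt HS.B0.1 yA.1 = 16 ∧ dotInt HS.X0.1 yA.1 = 0 ∧
    sqNorm yB.1 = 32 ∧ dotInt HS.A0.1 yB.1 = 0 ∧ dotInt HS.B0.1 yB.1 = 16 ∧ dotInt HS.X0.1 yB.1 = 16 ∧
    sqNorm yC.1 = 32 ∧ dotInt HS.A0.1 yC.1 = 0 ∧ dotInt HS.B0.1 yC.1 = 16 ∧ dotInt HS.X0.1 yC.1 = 8 := by
  simp only [val_A, val_B, val_X, yA, yB, yC]
  decide +kernel

/-- The stabiliser of the triple. -/
abbrev K : Subgroup Co0 := stabilizer Co0 HS.A0 ⊓ stabilizer Co0 HS.B0 ⊓ stabilizer Co0 HS.X0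

theorem gens : GensIn K [] words :=
  gensIn_of_fix [aL, bL, xL] K [] words (by decide +kernel) fun E hE =>
    ⟨⟨by
        have := hE aL (by simp) (val_A ▸ HS.A0.2)
        show E • HS.A0 = HS.A0
        rwa [show HS.A0 = (⟨vecOf aL, val_A ▸ HS.A0.2⟩ : leechLattice) from Subtype.ext val_A],
      by
        have := hE bL (by simp) (val_B ▸ HS.B0.2)
        show E • HS.B0 = HS.B0
        rwa [show HS.B0 = (⟨vecOf bL, val_B ▸ HS.B0.2⟩ : leechLattice) from Subtype.ext val_B]⟩,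
     by
        have := hE xL (by simp) (val_X ▸ HS.X0.2)
        show E • HS.X0 = HS.X0
        rwa [show HS.X0 = (⟨vecOf xL, val_X ▸ HS.X0.2⟩ : leechLattice) from Subtype.ext val_X]⟩

theorem checkA : orbitCheck [] words rootA treeA 330 = true := by decide +kernel
theorem checkB : orbitCheck [] words rootB treeB 462 = true := by decide +kernel
theorem checkC : orbitCheck [] words rootC treeC 1232 = true := by decide +kernel

/-- The 2025 vectors. -/
def T : Set leechLattice := {y | sqNorm y.1 = 32 ∧ dotInt HS.A0.1 y.1 = 0 ∧ dotInt HS.B0.1 y.1 = 16}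

theorem norms : sqNorm HS.A0.1 = 32 ∧ sqNorm HS.B0.1 = 32 ∧ sqNorm HS.X0.1 = 32 :=
  ⟨HS.norm_A0, HS.bList_ok.2.1, HS.norm_X0⟩

theorem X_mem : HS.X0 ∈ T :=
  ⟨HS.norm_X0, by rw [dotInt_comm']; exact HS.dot_X0A0, by rw [dotInt_comm']; exact HS.dot_X0B0⟩

theorem trans {v w x x' : leechLattice} (hv : sqNorm v.1 = 32) (hw : sqNorm w.1 = 32) (hvw : dotInt v.1 w.1 = -8)
    (hx : sqNorm x.1 = 32 ∧ dotInt v.1 x.1 = 0 ∧ dotInt w.1 x.1 = 16)
    (hx' : sqNorm x'.1 = 32 ∧ dotInt v.1 x'.1 = 0 ∧ dotInt w.1 x'.1 = 16) :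
    ∃ g : Co0, g • v = v ∧ g • w = w ∧ g • x = x' := by
  obtain ⟨g, g1, g2, g3⟩ := transitive_triple hx.1 hv hw (by rw [dotInt_comm']; exact hx.2.1)
    (by rw [dotInt_comm']; exact hx.2.2) hvw hx'.1 hv hw (by rw [dotInt_comm']; exact hx'.2.1)
    (by rw [dotInt_comm']; exact hx'.2.2) hvw
  exact ⟨g, g2, g3, g1⟩

theorem orbit_T : orbit ↥(stabilizer Co0 HS.A0 ⊓ stabilizer Co0 HS.B0) HS.X0 = T := by
  ext y
  constructor
  · rintro ⟨⟨g, gA, gB⟩, rfl⟩
    obtain ⟨h1, h2, h3⟩ := X_mem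
    refine ⟨(Leech.norm_smul g HS.X0).trans h1, ?_, ?_⟩
    · show dotInt HS.A0.1 (g • HS.X0).1 = 0
      rw [← show g • HS.A0 = HS.A0 from gA, dot_smul]; exact h2
    · show dotInt HS.B0.1 (g • HS.X0).1 = 16
      rw [← show g • HS.B0 = HS.B0 from gB, dot_smul]; exact h3
  · intro hy
    obtain ⟨g, g1, g2, g3⟩ := trans norms.1 norms.2.1 HS.dot_A0B0 X_mem hy
    exact ⟨⟨g, g1, g2⟩, g3⟩

theorem card_triple : Nat.card K = 443520 := by
  rw [← HS.card_stab]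
  refine Nat.card_congr
    { toFun := fun g => ⟨⟨g.1, HS.mem_H_of_fix g.2.2 g.2.1.1 g.2.1.2⟩, g.2.1.1⟩
      invFun := fun h => ⟨h.1.1, ⟨h.2, (HS.fix_of_mem h.1.2 h.2).2⟩, (HS.fix_of_mem h.1.2 h.2).1⟩
      left_inv := fun _ => rfl
      right_inv := fun _ => rfl }

theorem card_pair : Nat.card ↥(stabilizer Co0 HS.A0 ⊓ stabilizer Co0 HS.B0) = 898128000 := by
  have horb : orbit (stabilizer Co0 HS.A0) HS.B0 =
      {y : leechLattice | sqNorm y.1 = 32 ∧ dotInt HS.A0.1 y.1 = -8} := by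
    ext y
    constructor
    · rintro ⟨⟨g, hg⟩, rfl⟩
      refine ⟨(Leech.norm_smul g HS.B0).trans norms.2.1, ?_⟩
      show dotInt HS.A0.1 (g • HS.B0).1 = -8
      rw [← show g • HS.A0 = HS.A0 from hg, dot_smul]; exact HS.dot_A0B0
    · intro hy
      obtain ⟨g, g1, g2⟩ := transitive_dot8 norms.1 norms.2.1 HS.dot_A0B0 norms.1 hy.1 hy.2
      exact ⟨⟨g, g1⟩, g2⟩
  have h := card_eq_mul_of_orbit (stabilizer Co0 HS.A0) HS.B0 _ horb
  rw [card_stab32 norms.1, ncard_vectors (fun x => sqNorm x = 32 ∧ dotInt HS.A0.1 x = -8),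
    show {x : GolayPt → ℤ | x ∈ leechLattice ∧ sqNorm x = 32 ∧ dotInt HS.A0.1 x = -8} = dotSet HS.A0.1 (-8) from rfl,
    (census HS.A0.2 norms.1).2.1] at h
  omega

theorem ncard_T : T.ncard = 2025 := by
  have h := card_eq_mul_of_orbit (stabilizer Co0 HS.A0 ⊓ stabilizer Co0 HS.B0) HS.X0 _ orbit_T
  rw [card_pair, card_triple] at h
  omega

theorem finite_T : T.Finite := Set.finite_of_ncard_ne_zero (by rw [ncard_T]; omega)

theorem orbit_subset {y : leechLattice} (hy : y ∈ T) :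
    orbit K y ⊆ {z | z ∈ T ∧ dotInt HS.X0.1 z.1 = dotInt HS.X0.1 y.1} := by
  rintro _ ⟨⟨g, ⟨gA, gB⟩, gX⟩, rfl⟩
  refine ⟨⟨(Leech.norm_smul g y).trans hy.1, ?_, ?_⟩, ?_⟩
  · show dotInt HS.A0.1 (g • y).1 = 0
    rw [← show g • HS.A0 = HS.A0 from gA, dot_smul]; exact hy.2.1
  · show dotInt HS.B0.1 (g • y).1 = 16
    rw [← show g • HS.B0 = HS.B0 from gB, dot_smul]; exact hy.2.2
  · show dotInt HS.X0.1 (g • y).1 = _
    rw [← show g • HS.X0 = HS.X0 from gX, dot_smul, show g • HS.X0 = HS.X0 from gX]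

theorem orbits : (orbit K yA).ncard = 330 ∧ (orbit K yB).ncard = 462 ∧ (orbit K yC).ncard = 1232 := by
  obtain ⟨nA, aA, bA, xA, nB, aB, bB, xB, nC, aC, bC, xC⟩ := val_ok
  have sA := orbit_subset (y := yA) ⟨nA, aA, bA⟩
  have sB := orbit_subset (y := yB) ⟨nB, aB, bB⟩
  have sC := orbit_subset (y := yC) ⟨nC, aC, bC⟩
  rw [xA] at sA
  rw [xB] at sB
  rw [xC] at sC
  have fA := finite_T.subset fun z hz => (sA hz).1
  have fB := finite_T.subset fun z hz => (sB hz).1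
  have fC := finite_T.subset fun z hz => (sC hz).1
  have lA := le_orbit gens checkA (v := yA) rfl fA
  have lB := le_orbit gens checkB (v := yB) rfl fB
  have lC := le_orbit gens checkC (v := yC) rfl fC
  have dXX : dotInt HS.X0.1 HS.X0.1 = 32 := (dot_self _).trans norms.2.2
  have e1 : ({HS.X0} ∪ orbit K yA : Set leechLattice).ncard = 1 + (orbit K yA).ncard := by
    rw [Set.ncard_union_eq (Set.disjoint_singleton_left.2 fun hz => by have := (sA hz).2; omega)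
      (Set.finite_singleton _) fA, Set.ncard_singleton]
  have e2 : ({HS.X0} ∪ orbit K yA ∪ orbit K yB).ncard = 1 + (orbit K yA).ncard + (orbit K yB).ncard := by
    rw [Set.ncard_union_eq ?_ ((Set.finite_singleton _).union fA) fB, e1]
    refine Set.disjoint_left.2 fun z hz hz' => ?_
    have := (sB hz').2
    rcases hz with rfl | hz
    · omega
    · have := (sA hz).2; omega
  have e3 : ({HS.X0} ∪ orbit K yA ∪ orbit K yB ∪ orbit K yC).ncard =
      1 + (orbit K yA).ncard + (orbit K yB).ncard + (orbit K yC).ncard := by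
    rw [Set.ncard_union_eq ?_ (((Set.finite_singleton _).union fA).union fB) fC, e2]
    refine Set.disjoint_left.2 fun z hz hz' => ?_
    have := (sC hz').2
    rcases hz with (rfl | hz) | hz
    · omega
    · have := (sA hz).2; omega
    · have := (sB hz).2; omega
  have hsub : ({HS.X0} ∪ orbit K yA ∪ orbit K yB ∪ orbit K yC : Set leechLattice) ⊆ T := by
    rintro z (((rfl | hz) | hz) | hz)
    · exact X_mem
    · exact (sA hz).1
    · exact (sB hz).1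
    · exact (sC hz).1
  have hle := Set.ncard_le_ncard hsub finite_T
  rw [e3, ncard_T] at hle
  omega

/-- The statement for any configuration. -/
theorem rank_four {v w : leechLattice} (hv : sqNorm v.1 = 32) (hw : sqNorm w.1 = 32) (hvw : dotInt v.1 w.1 = -8) :
    {z : leechLattice | sqNorm z.1 = 32 ∧ dotInt v.1 z.1 = 0 ∧ dotInt w.1 z.1 = 16}.ncard = 2025 ∧
    ∀ x ∈ {z : leechLattice | sqNorm z.1 = 32 ∧ dotInt v.1 z.1 = 0 ∧ dotInt w.1 z.1 = 16},
      ∃ y₁ ∈ {z : leechLattice | sqNorm z.1 = 32 ∧ dotInt v.1 z.1 = 0 ∧ dotInt w.1 z.1 = 16},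
      ∃ y₂ ∈ {z : leechLattice | sqNorm z.1 = 32 ∧ dotInt v.1 z.1 = 0 ∧ dotInt w.1 z.1 = 16},
      ∃ y₃ ∈ {z : leechLattice | sqNorm z.1 = 32 ∧ dotInt v.1 z.1 = 0 ∧ dotInt w.1 z.1 = 16},
        (orbit ↥(stabilizer Co0 v ⊓ stabilizer Co0 w ⊓ stabilizer Co0 x) y₁).ncard = 330 ∧
        (orbit ↥(stabilizer Co0 v ⊓ stabilizer Co0 w ⊓ stabilizer Co0 x) y₂).ncard = 462 ∧
        (orbit ↥(stabilizer Co0 v ⊓ stabilizer Co0 w ⊓ stabilizer Co0 x) y₃).ncard = 1232 := by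
  have img : ∀ g : Co0, g • HS.A0 = v → g • HS.B0 = w → ∀ y ∈ T,
      g • y ∈ {z : leechLattice | sqNorm z.1 = 32 ∧ dotInt v.1 z.1 = 0 ∧ dotInt w.1 z.1 = 16} := by
    rintro g ga gb y ⟨h1, h2, h3⟩
    exact ⟨(Leech.norm_smul g y).trans h1, by rw [← ga, dot_smul]; exact h2, by rw [← gb, dot_smul]; exact h3⟩
  refine ⟨?_, fun x hx => ?_⟩
  · obtain ⟨g, ga, gb⟩ := transitive_dot8 norms.1 norms.2.1 HS.dot_A0B0 hv hw hvw
    rw [← ncard_T, ← Set.ncard_image_of_injective T (MulAction.injective g)]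
    refine congrArg Set.ncard (Set.ext fun z => ⟨fun hz => ?_, ?_⟩)
    · refine ⟨g⁻¹ • z, ⟨(Leech.norm_smul _ z).trans hz.1, ?_, ?_⟩, smul_inv_smul g z⟩
      · rw [← dot_smul g, smul_inv_smul, ga]; exact hz.2.1
      · rw [← dot_smul g, smul_inv_smul, gb]; exact hz.2.2
    · rintro ⟨y, hy, rfl⟩; exact img g ga gb y hy
  · obtain ⟨g, gx, ga, gb⟩ := transitive_triple norms.2.2 norms.1 norms.2.1 HS.dot_X0A0 HS.dot_X0B0 HS.dot_A0B0
      hx.1 hv hw (by rw [dotInt_comm']; exact hx.2.1) (by rw [dotInt_comm']; exact hx.2.2) hvw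
    have hH : ∀ k : Co0, k ∈ K ↔ g * k * g⁻¹ ∈ stabilizer Co0 v ⊓ stabilizer Co0 w ⊓ stabilizer Co0 x := fun k => by
      rw [← ga, ← gb, ← gx]
      simp only [Subgroup.mem_inf, stab_conj]
    obtain ⟨a, b, c⟩ := orbits
    obtain ⟨nA, aA, bA, -, nB, aB, bB, -, nC, aC, bC, -⟩ := val_ok
    refine ⟨g • yA, img g ga gb _ ⟨nA, aA, bA⟩, g • yB, img g ga gb _ ⟨nB, aB, bB⟩,
      g • yC, img g ga gb _ ⟨nC, aC, bC⟩, ?_, ?_, ?_⟩ <;>
      rw [orbit_map g hH, Set.ncard_image_of_injective _ (MulAction.injective g)] <;> assumption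

end CfsgLib.LeechEnum.McLOrbits
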